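import Mathlib
import Cfsg.Agent.TcData.OL11Q.I660.Tab

set_option autoImplicit false
set_option Elab.async false
set_option maxRecDepth 100000
set_option linter.all false

namespace Cfsg.Agent.TcData.OL11Q.I660

open Cfsg.Spor Cfsg.Agent.Lib.TcFacts Cfsg.Agent.Lib.TcBits Cfsg.Agent.Lib.TcPres Cfsg.Agent.Lib.OL11Pres Cfsg.Agent.TcData.OL11Q

theorem b0 : Block F al 0 256 249 :=
  block_of_check (k := 8) rfl (by decide +kernel)

theorem b1 : Block F al 256 512 204 :=
  block_of_check (k := 8) rfl (by decide +kernel)

theorem b2 : Block F al 512 768 116 :=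
  block_of_check (k := 8) rfl (by decide +kernel)

theorem b3 : Block F al 768 1024 56 :=
  block_of_check (k := 8) rfl (by decide +kernel)

theorem b4 : Block F al 1024 1280 24 :=
  block_of_check (k := 8) rfl (by decide +kernel)

theorem b5 : Block F al 1280 1536 8 :=
  block_of_check (k := 8) rfl (by decide +kernel)

theorem b6 : Block F al 1536 1792 3 :=
  block_of_check (k := 8) rfl (by decide +kernel)

end Cfsg.Agent.TcData.OL11Q.I660
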